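/-
H23: checks in 2.G2(4).
-/
import Cfsg.Agent.Lib.H34.MPt
import Cfsg.Agent.Lib.H23.G24.Tab
set_option autoImplicit false
set_option maxRecDepth 100000

namespace H23.G24

open H34.MK H35.TC

/-- values in the range -/
noncomputable def rng (T : ℕ) : Bool :=
  allB (fun i => Bool.rec (motive := fun _ => Bool) (Nat.blt (imp 13 8191 [T] i) 8064) true (Nat.ble 8064 i)) 13 0

theorem rg_a : rng Ta = true := by decide +kernel
theorem rg_b : rng Tb = true := by decide +kernel
theorem rg_c : rng Tc = true := by decide +kernel
theorem rg_d : rng Td = true := by decide +kernel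
theorem rg_e : rng Te = true := by decide +kernel
theorem rg_f : rng Tf = true := by decide +kernel
theorem rgi_d : rng Id = true := by decide +kernel
theorem rgi_e : rng Ie = true := by decide +kernel
theorem rg_z : rng Tz = true := by decide +kernel
theorem v_a : chk 13 8191 8064 13 [Ta, Ta] = true := by decide +kernel
theorem v_b : chk 13 8191 8064 13 [Tb, Tb] = true := by decide +kernel
theorem v_c : chk 13 8191 8064 13 [Tc, Tc] = true := by decide +kernel
theorem v_f : chk 13 8191 8064 13 [Tf, Tf] = true := by decide +kernel
theorem v_d : chk 13 8191 8064 13 [Td, Id] = true := by decide +kernel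
theorem vi_d : chk 13 8191 8064 13 [Id, Td] = true := by decide +kernel
theorem v_e : chk 13 8191 8064 13 [Te, Ie] = true := by decide +kernel
theorem vi_e : chk 13 8191 8064 13 [Ie, Te] = true := by decide +kernel
theorem v_z : chk 13 8191 8064 13 [Tz, Tz] = true := by decide +kernel
theorem s_d : chk 13 8191 8064 13 [Td, Td, Tz] = true := by decide +kernel
theorem s_e : chk 13 8191 8064 13 [Te, Te, Tz] = true := by decide +kernel
theorem z_a : chk 13 8191 8064 13 [Ta, Tz, Ta, Tz] = true := by decide +kernel
theorem z_b : chk 13 8191 8064 13 [Tb, Tz, Tb, Tz] = true := by decide +kernel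
theorem z_c : chk 13 8191 8064 13 [Tc, Tz, Tc, Tz] = true := by decide +kernel
theorem z_d : chk 13 8191 8064 13 [Td, Tz, Id, Tz] = true := by decide +kernel
theorem z_e : chk 13 8191 8064 13 [Te, Tz, Ie, Tz] = true := by decide +kernel
theorem z_f : chk 13 8191 8064 13 [Tf, Tz, Tf, Tz] = true := by decide +kernel

end H23.G24
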