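/-
H23: checks in 2.G2(4).
-/
import Cfsg.Agent.Lib.H34.MPt
import Cfsg.Agent.Lib.H23.G24.Tab
set_option autoImplicit false
set_option maxRecDepth 100000

namespace H23.G24

open H34.MK H35.TC

/-- bcdcdbcdcdbcdcdbcdcdbcdcdebcdcdbcdcdbcdcdbcdcdbcdcdebcdcdbcdcdbcdcdbcdcdbcdcde -/
theorem w23 : chk 13 8191 8064 13 [Tb, Tc, Td, Tc, Td, Tb, Tc, Td, Tc, Td, Tb, Tc, Td, Tc, Td, Tb, Tc, Td, Tc, Td, Tb, Tc, Td, Tc, Td, Te, Tb, Tc, Td, Tc, Td, Tb, Tc, Td, Tc, Td, Tb, Tc, Td, Tc, Td, Tb, Tc, Td, Tc, Td, Tb, Tc, Td, Tc, Td, Te, Tb, Tc, Td, Tc, Td, Tb, Tc, Td, Tc, Td, Tb, Tc, Td, Tc, Td, Tb, Tc, Td, Tc, Td, Tb, Tc, Td, Tc, Td, Te] = true := by decide +kernel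

end H23.G24
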