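/-
H23: checks in 2.G2(4).
-/
import Cfsg.Agent.Lib.H34.MPt
import Cfsg.Agent.Lib.H23.G24.Tab
set_option autoImplicit false
set_option maxRecDepth 100000

namespace H23.G24

open H34.MK H35.TC

/-- acac -/
theorem w7 : chk 13 8191 8064 13 [Ta, Tc, Ta, Tc] = true := by decide +kernel
/-- aeae -/
theorem w9 : chk 13 8191 8064 13 [Ta, Te, Ta, Te, Tz] = true := by decide +kernel
/-- bdbd -/
theorem w12 : chk 13 8191 8064 13 [Tb, Td, Tb, Td, Tz] = true := by decide +kernel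
/-- bfbfbf -/
theorem w14 : chk 13 8191 8064 13 [Tb, Tf, Tb, Tf, Tb, Tf] = true := by decide +kernel
/-- cece -/
theorem w16 : chk 13 8191 8064 13 [Tc, Te, Tc, Te, Tz] = true := by decide +kernel
/-- dfdf -/
theorem w19 : chk 13 8191 8064 13 [Td, Tf, Td, Tf, Tz] = true := by decide +kernel
/-- adcdcdcdc -/
theorem w21 : chk 13 8191 8064 13 [Ta, Td, Tc, Td, Tc, Td, Tc, Td, Tc] = true := by decide +kernel
/-- abcfabcfabcfabcfabcf -/
theorem w22 : chk 13 8191 8064 13 [Ta, Tb, Tc, Tf, Ta, Tb, Tc, Tf, Ta, Tb, Tc, Tf, Ta, Tb, Tc, Tf, Ta, Tb, Tc, Tf] = true := by decide +kernel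

end H23.G24
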