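/-
H23: checks in 2.G2(4).
-/
import Cfsg.Agent.Lib.H34.MPt
import Cfsg.Agent.Lib.H23.G24.Tab
set_option autoImplicit false
set_option maxRecDepth 100000

namespace H23.G24

open H34.MK H35.TC

/-- ababababab -/
theorem w6 : chk 13 8191 8064 13 [Ta, Tb, Ta, Tb, Ta, Tb, Ta, Tb, Ta, Tb, Tz] = true := by decide +kernel
/-- adad -/
theorem w8 : chk 13 8191 8064 13 [Ta, Td, Ta, Td, Tz] = true := by decide +kernel
/-- afaf -/
theorem w10 : chk 13 8191 8064 13 [Ta, Tf, Ta, Tf] = true := by decide +kernel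
/-- bcbcbc -/
theorem w11 : chk 13 8191 8064 13 [Tb, Tc, Tb, Tc, Tb, Tc] = true := by decide +kernel
/-- bebe -/
theorem w13 : chk 13 8191 8064 13 [Tb, Te, Tb, Te, Tz] = true := by decide +kernel
/-- cdcdcdcdcdcdcdcd -/
theorem w15 : chk 13 8191 8064 13 [Tc, Td, Tc, Td, Tc, Td, Tc, Td, Tc, Td, Tc, Td, Tc, Td, Tc, Td] = true := by decide +kernel
/-- cfcf -/
theorem w17 : chk 13 8191 8064 13 [Tc, Tf, Tc, Tf] = true := by decide +kernel
/-- dedede -/
theorem w18 : chk 13 8191 8064 13 [Td, Te, Td, Te, Td, Te] = true := by decide +kernel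
/-- efef -/
theorem w20 : chk 13 8191 8064 13 [Te, Tf, Te, Tf, Tz] = true := by decide +kernel

end H23.G24
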